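import Cfsg.Agent.H17.IFSp.Phi
import Cfsg.Agent.H741.TransvGen

/-!
# S5719, symplectic groups, `q` odd: minimal index, generation (helper17)

* `min_index_sp` : a subgroup of `Sp_{2n}(q)`, `q` odd, of index less than `3 q ^ (n - 1)` is everything.
* `top_of_relIndex` : `X ≤ Sp_{2m}(q)`, `m ≥ 3`, contains a fundamental involution and has index less than
  `3 q ^ (m - 2)` in the centraliser of every fundamental involution in `X`: then `X = Sp_{2m}(q)`.
-/

set_option autoImplicit false

namespace Cfsg.Agent.H17.IFSp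

open Module

variable {F : Type*} [Field F]

/-- A totally isotropic subspace has order at most the square root of the order of the space. -/
theorem card_sq_le {K : Type*} [Field K] [Finite K] {W : Type*} [AddCommGroup W] [Module K W] [FiniteDimensional K W]
    {B : LinearMap.BilinForm K W} (hB : B.IsAlt) (hnd : ND B) (U : Submodule K W)
    (h1 : ∀ x ∈ U, ∀ y ∈ U, B x y = 0) : Nat.card U ^ 2 ≤ Nat.card W := by
  have hnd' : B.Nondegenerate := by
    refine ⟨fun x hx => hnd x hx, fun x hx => hnd x fun y => ?_⟩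
    rw [alt_neg hB, hx y, neg_zero]
  have h2 : U ≤ B.orthogonal U := by
    intro x hx y hy
    exact h1 y hy x hx
  have h3 := Submodule.finrank_mono h2
  have h4 := LinearMap.BilinForm.finrank_orthogonal hnd' U
  have h6 := U.finrank_le
  rw [Module.natCard_eq_pow_finrank (K := K) (V := U), Module.natCard_eq_pow_finrank (K := K) (V := W), ← pow_mul]
  exact Nat.pow_le_pow_right Nat.card_pos (by omega)

section MinIndex

variable {W : Type*} [AddCommGroup W] [Module F W] {B : LinearMap.BilinForm F W}

/-- an additive subgroup with values of the form in a proper additive subgroup of `F` -/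
theorem card_add_sq_le [Finite F] [FiniteDimensional F W] (hB : B.IsAlt) (hnd : ND B) (A : AddSubgroup F)
    (hA : A ≠ ⊤) (D : AddSubgroup W) (hD : ∀ x ∈ D, ∀ y ∈ D, B x y ∈ A) : Nat.card D ^ 2 ≤ Nat.card W := by
  have : Finite W := Module.finite_of_finite F
  obtain ⟨p, hp⟩ := CharP.exists F
  have hpp : Fact p.Prime := ⟨CharP.char_is_prime F p⟩
  let _ : Algebra (ZMod p) F := ZMod.algebra F p
  let _ : Module (ZMod p) W := Module.compHom W (algebraMap (ZMod p) F)
  have hst : IsScalarTower (ZMod p) F W := ⟨fun a b w => by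
    show (a • b) • w = (algebraMap (ZMod p) F a) • b • w
    rw [Algebra.smul_def, mul_smul]⟩
  let A' : Submodule (ZMod p) F := AddSubgroup.toZModSubmodule p A
  have hA' : A' < ⊤ := by
    rw [lt_top_iff_ne_top]
    intro h
    apply hA
    rw [AddSubgroup.eq_top_iff']
    intro x
    have h3 : x ∈ A' := by rw [h]; exact Submodule.mem_top
    exact h3
  obtain ⟨φ, hφ0, hφ⟩ := Submodule.exists_le_ker_of_lt_top A' hA'
  let B' : LinearMap.BilinForm (ZMod p) W := LinearMap.mk₂ (ZMod p) (fun x y => φ (B x y))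
    (by intro x y z; rw [map_add, LinearMap.add_apply, map_add])
    (by
      intro c x y
      have h3 : c • x = (algebraMap (ZMod p) F c) • x := rfl
      rw [h3, map_smul, LinearMap.smul_apply, smul_eq_mul, ← Algebra.smul_def, map_smul])
    (by intro x y z; rw [map_add, map_add])
    (by
      intro c x y
      have h3 : c • y = (algebraMap (ZMod p) F c) • y := rfl
      rw [h3, map_smul, smul_eq_mul, ← Algebra.smul_def, map_smul])
  have hB' : ∀ x y, B' x y = φ (B x y) := fun x y => rfl
  have hfd : FiniteDimensional (ZMod p) W := Module.Finite.of_finite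
  have h4 := card_sq_le (B := B') (fun x => by rw [hB', show B x x = 0 from hB x, map_zero]) (by
    intro x hx
    apply hnd
    intro y
    by_contra hne
    apply hφ0
    ext t
    have h5 := hx ((t * (B x y)⁻¹) • y)
    rw [hB', map_smul, smul_eq_mul, mul_assoc, inv_mul_cancel₀ hne, mul_one] at h5
    rw [h5, LinearMap.zero_apply]) (AddSubgroup.toZModSubmodule p D) (by
    intro x hx y hy
    rw [hB']
    exact LinearMap.mem_ker.1 (hφ (hD x hx y hy)))
  exact h4

/-- in the model: a subgroup of index less than `3 q ^ (n - 1)` contains all transvections with centre `e` -/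
theorem qe_mem_of_index [Finite F] [FiniteDimensional F W] (hB : B.IsAlt) (hnd : ND B) (h2 : (2 : F) ≠ 0) {n : ℕ}
    (hM : finrank F W = 2 * n) (Y : Subgroup (Sp (HB B))) (hY : Y.index < 3 * Nat.card F ^ n) (c : F) :
    qe hB c 0 ∈ Y := by
  have : Finite W := Module.finite_of_finite F
  have hfin' : Finite (Sp (HB B)) := finite_Sp (HB B)
  let A : AddSubgroup F :=
    { carrier := {c | qe hB c 0 ∈ Y}
      zero_mem' := by
        show qe hB 0 0 ∈ Y
        rw [qe_zero]
        exact Y.one_mem
      add_mem' := by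
        intro a b ha hb
        have h3 := Y.mul_mem ha hb
        rw [qe_mul, map_zero, add_zero, add_zero] at h3
        exact h3
      neg_mem' := by
        intro a ha
        have h3 := Y.inv_mem ha
        rw [qe_inv, neg_zero] at h3
        exact h3 }
  by_contra hc
  have hA : A ≠ ⊤ := by
    intro h
    apply hc
    have h3 : c ∈ A := by rw [h]; exact AddSubgroup.mem_top _
    exact h3
  let D : AddSubgroup W :=
    { carrier := {u | ∃ c, qe hB c u ∈ Y}
      zero_mem' := ⟨0, by rw [qe_zero]; exact Y.one_mem⟩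
      add_mem' := by
        rintro a b ⟨c, ha⟩ ⟨c', hb⟩
        have h3 := Y.mul_mem ha hb
        rw [qe_mul] at h3
        exact ⟨_, h3⟩
      neg_mem' := by
        rintro a ⟨c, ha⟩
        have h3 := Y.inv_mem ha
        rw [qe_inv] at h3
        exact ⟨_, h3⟩ }
  have hD : ∀ x ∈ D, ∀ y ∈ D, B x y ∈ A := by
    have h3 : ∀ x ∈ D, ∀ y ∈ D, 2 * B x y ∈ A := by
      rintro x ⟨c, hx⟩ y ⟨c', hy⟩
      have h3 : qe hB c x * qe hB c' y * (qe hB c' y * qe hB c x)⁻¹ ∈ Y := Y.mul_mem (Y.mul_mem hx hy)
        (Y.inv_mem (Y.mul_mem hy hx))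
      have hxx : B x x = 0 := hB x
      have hyy : B y y = 0 := hB y
      have h4 : qe hB c x * qe hB c' y * (qe hB c' y * qe hB c x)⁻¹ = qe hB (2 * B x y) 0 := by
        rw [qe_mul, qe_mul, qe_inv, qe_mul, alt_neg hB y x]
        congr 1
        · simp only [map_add, map_neg, LinearMap.add_apply, hxx, hyy, alt_neg hB y x]
          ring
        · abel
      rw [h4] at h3
      exact h3
    intro x hx y hy
    -- `A` has odd order
    have h4 := h3 x hx y hy
    obtain ⟨p, hp⟩ := CharP.exists F
    have hpp : p.Prime := CharP.char_is_prime F p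
    have hp2 : p ≠ 2 := by
      rintro rfl
      exact h2 (by exact_mod_cast CharP.cast_eq_zero F 2)
    obtain ⟨k, hk⟩ := hpp.odd_of_ne_two hp2
    have h5 : ((k + 1 : ℕ) : F) * (2 * B x y) = B x y := by
      have h6 : ((p : ℕ) : F) = 0 := CharP.cast_eq_zero F p
      rw [hk] at h6
      push_cast at h6 ⊢
      linear_combination (B x y) * h6
    rw [← h5, ← nsmul_eq_mul]
    exact A.nsmul_mem h4 _
  have h5 := card_add_sq_le hB hnd A hA D hD
  have hq : 0 < Nat.card F := Nat.card_pos
  have hcW : Nat.card W = (Nat.card F ^ n) ^ 2 := by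
    rw [Module.natCard_eq_pow_finrank (K := F), hM, mul_comm, pow_mul]
  rw [hcW] at h5
  have h6 : Nat.card D ≤ Nat.card F ^ n := (Nat.pow_le_pow_iff_left (by norm_num)).1 h5
  -- the order of `A`
  have h7 : 3 * Nat.card A ≤ Nat.card F := by
    have h8 : Nat.card A * A.index = Nat.card F := A.card_mul_index
    have h9 : A.index ≠ 1 := fun h => hA (AddSubgroup.index_eq_one.1 h)
    have h10 : A.index ≠ 0 := by
      intro h0
      rw [h0, mul_zero] at h8
      omega
    have h11 : A.index ≠ 2 := by
      intro h12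
      have hqo : Odd (Nat.card F) := by
        rw [← Nat.not_even_iff_odd]
        intro he
        apply h2
        obtain ⟨p, hp⟩ := CharP.exists F
        have := Fintype.ofFinite F
        obtain ⟨n, hpp, hn⟩ := FiniteField.card F p
        rw [Nat.card_eq_fintype_card, hn] at he
        have h3 : 2 ∣ p := Nat.prime_two.dvd_of_dvd_pow (even_iff_two_dvd.1 he)
        have h4 : 2 = p := (Nat.prime_dvd_prime_iff_eq Nat.prime_two hpp).1 h3
        subst h4
        exact_mod_cast CharP.cast_eq_zero F 2
      rw [← h8, h12] at hqo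
      exact (Nat.not_even_iff_odd.2 hqo) (even_iff_two_dvd.2 (Dvd.intro_left _ rfl))
    calc 3 * Nat.card A ≤ A.index * Nat.card A := Nat.mul_le_mul_right _ (by omega)
      _ = _ := by rw [mul_comm]; exact h8
  -- the order of `Q ∩ Y`
  have h8 : Nat.card (Y ⊓ Qe hB : Subgroup (Sp (HB B))) ≤ Nat.card A * Nat.card D := by
    choose! cc hcc using (fun u (hu : u ∈ D) => (hu : ∃ c, qe hB c u ∈ Y))
    rw [← Nat.card_prod]
    have hex : ∀ g : (Y ⊓ Qe hB : Subgroup (Sp (HB B))), ∃ x : A × D, g.1 = qe hB (x.1.1 + cc x.2.1) x.2.1 := by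
      rintro ⟨_, hgY, c, u, rfl⟩
      have hu : u ∈ D := ⟨c, hgY⟩
      have h9 := Y.mul_mem hgY (Y.inv_mem (hcc u hu))
      have huu : B u u = 0 := hB u
      rw [qe_inv, qe_mul, map_neg, huu, neg_zero, add_zero, add_neg_cancel, ← sub_eq_add_neg] at h9
      refine ⟨(⟨c - cc u, h9⟩, ⟨u, hu⟩), ?_⟩
      show qe hB c u = qe hB (c - cc u + cc u) u
      rw [sub_add_cancel]
    choose F1 hF1 using hex
    refine Nat.card_le_card_of_injective F1 ?_
    intro g h hgh
    apply Subtype.ext
    rw [hF1 g, hF1 h, hgh]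
  have h9 : Nat.card (Qe hB) ≤ Nat.card (Y ⊓ Qe hB : Subgroup (Sp (HB B))) * Y.index := by
    have h10 : Nat.card (Y ⊓ Qe hB : Subgroup (Sp (HB B))) * Y.relIndex (Qe hB) = Nat.card (Qe hB) := by
      rw [← Subgroup.inf_relIndex_right, ← Subgroup.relIndex_bot_left (Y ⊓ Qe hB), ← Subgroup.relIndex_bot_left (Qe hB)]
      exact Subgroup.relIndex_mul_relIndex ⊥ _ _ bot_le inf_le_right
    rw [← h10]
    refine Nat.mul_le_mul_left _ ?_
    rw [← Subgroup.relIndex_top_right]
    exact Subgroup.relIndex_le_of_le_right le_top (by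
      rw [Subgroup.relIndex_top_right]
      exact Subgroup.index_ne_zero_of_finite)
  rw [card_Qe, hcW] at h9
  have hA0 : 0 < Nat.card A := Nat.card_pos
  have hqn : 0 < Nat.card F ^ n := pow_pos hq n
  generalize Nat.card F ^ n = r at *
  generalize Nat.card F = q at *
  have h10 : Nat.card (Y ⊓ Qe hB : Subgroup (Sp (HB B))) ≤ Nat.card A * r := h8.trans (Nat.mul_le_mul_left _ h6)
  have h11 : q * r ^ 2 ≤ Nat.card A * r * Y.index := h9.trans (Nat.mul_le_mul_right _ h10)
  have h12 : Nat.card A * r * Y.index < Nat.card A * r * (3 * r) := Nat.mul_lt_mul_of_pos_left hY (Nat.mul_pos hA0 hqn)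
  have h13 : Nat.card A * r * (3 * r) ≤ q * r ^ 2 := by
    calc Nat.card A * r * (3 * r) = (3 * Nat.card A) * r ^ 2 := by ring
      _ ≤ _ := Nat.mul_le_mul_right _ h7
  omega

end MinIndex

section Top

variable {V : Type*} [AddCommGroup V] [Module F V] {B : LinearMap.BilinForm F V}

/-- transvection as an element of `Sp B` -/
def tvS (hB : B.IsAlt) (a : V) (c : F) : Sp B := ⟨H741.stv hB a c, H741.stv_isom hB a c⟩

theorem tvS_apply (hB : B.IsAlt) (a : V) (c : F) (x : V) : (tvS hB a c).1 x = x + (c * B x a) • a := rfl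

theorem top_of_tvS [FiniteDimensional F V] (hB : B.IsAlt) (hnd : ND B) (X : Subgroup (Sp B))
    (hX : ∀ a c, tvS hB a c ∈ X) : X = ⊤ := by
  have hnd' : B.Nondegenerate := by
    refine ⟨fun x hx => hnd x hx, fun x hx => hnd x fun y => ?_⟩
    rw [alt_neg hB, hx y, neg_zero]
  rw [Subgroup.eq_top_iff']
  rintro ⟨g, hg⟩
  have h := H741.sp_le hB hnd' (X.map (Sp B).subtype) (fun a c => ⟨tvS hB a c, hX a c, rfl⟩) hg
  obtain ⟨y, hy, hyg⟩ := h
  have : y = ⟨g, hg⟩ := Subtype.ext hyg
  rwa [← this]

/-- **Minimal index of `Sp_{2n}(q)`, `q` odd** (weak form) -/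
theorem min_index_sp [Finite F] [FiniteDimensional F V] (hB : B.IsAlt) (hnd : ND B) (h2 : (2 : F) ≠ 0) {n : ℕ}
    (hM : finrank F V = 2 * n) (X : Subgroup (Sp B)) (hX : X.index < 3 * Nat.card F ^ (n - 1)) : X = ⊤ := by
  apply top_of_tvS hB hnd
  intro e c
  by_cases he : e = 0
  · have : tvS hB e c = 1 := by
      apply Sp.ext
      intro x
      rw [tvS_apply, he, smul_zero, add_zero, Sp.one_apply]
    rw [this]
    exact X.one_mem
  obtain ⟨f, hef⟩ := exists_pair hnd he
  have h3 := finrank_perp2 hB hef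
  have h4 : finrank F (perp2 B e f) = 2 * (n - 1) := by omega
  let ψ := spCongr (split2_iso hB hef)
  have hi : (X.comap ψ.symm.toMonoidHom).index = X.index :=
    Subgroup.index_comap_of_surjective X (f := ψ.symm.toMonoidHom) ψ.symm.surjective
  have h5 := qe_mem_of_index (B2_alt hB e f) (B2_nd hB hnd hef) h2 h4 (X.comap ψ.symm.toMonoidHom) (by rw [hi]; exact hX)
    (- c)
  have h6 : ψ.symm (qe (B2_alt hB e f) (-c) 0) ∈ X := h5
  have h7 : ψ.symm (qe (B2_alt hB e f) (-c) 0) = tvS hB e c := by
    rw [MulEquiv.symm_apply_eq]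
    apply Sp.ext
    intro y
    obtain ⟨x, rfl⟩ := (split2 hB hef).surjective y
    have h8 : (ψ (tvS hB e c)).1 (split2 hB hef x) = split2 hB hef ((tvS hB e c).1 x) :=
      spCongr_apply (split2_iso hB hef) _ _
    rw [h8, tvS_apply, map_add, map_smul]
    have h9 : split2 hB hef x = (B x f, B e x, (split2 hB hef x).2.2) := rfl
    have hee : B e e = 0 := hB e
    have h10 : split2 hB hef e = (1, 0, 0) := by
      refine Prod.ext hef (Prod.ext hee (Subtype.ext ?_))
      show e - B e f • e - B e e • f = 0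
      rw [hef, hee, one_smul, zero_smul, sub_self, sub_zero]
    rw [h10, h9, qe_apply]
    refine Prod.ext ?_ (Prod.ext ?_ ?_)
    · simp only [map_zero, LinearMap.zero_apply, add_zero, Prod.smul_mk, smul_eq_mul, mul_one, Prod.mk_add_mk, mul_zero,
        smul_zero]
      rw [alt_neg hB x e]
      ring
    · simp
    · simp
  rwa [h7] at h6

end Top

end Cfsg.Agent.H17.IFSp
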